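/-
Certificates for bounds on the order of a group given by generators satisfying relators, and homomorphisms obtained
from diagonal subgroups.
-/
import Cfsg.Agent.J4x.GD

set_option autoImplicit false
set_option maxRecDepth 100000
set_option linter.unusedSectionVars false

namespace CA.J4y

open CA.M24 CA.Fi CA.FG CA.J4x Cfsg Subgroup

noncomputable section

/-- the first letter of a packed word -/
def lt (u : ℕ) : ℕ := Nat.land u (nat_lit 15)
/-- the word without its first `j` letters -/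
def dr (u j : ℕ) : ℕ := Nat.shiftRight u (Nat.mul (nat_lit 4) j)
/-- the length of a relator -/
def ln (w : ℕ) : ℕ := Nat.land w (nat_lit 255)

theorem lt_lt (u : ℕ) : lt u < 16 := Nat.lt_succ_of_le Nat.and_le_right

theorem dr_dr (u i j : ℕ) : dr (dr u i) j = dr u (i + j) := by
  show u >>> (4 * i) >>> (4 * j) = u >>> (4 * (i + j))
  rw [← Nat.shiftRight_add, mul_add]

/-- evaluation of a word on codes -/
def ev (mul : ℕ → ℕ → ℕ) (one : ℕ) (gs : List ℕ) (k : ℕ) : ℕ → ℕ := Nat.rec (motive := fun _ => ℕ → ℕ) (fun _ => one)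
  (fun _ ih u => force (getL gs one (lt u)) fun a => force (ih (dr u 1)) (mul a)) k

/-- a relator is its length followed by two copies of the word -/
def per (w : ℕ) : Bool := allR (fun i => Nat.beq (lt (dr w (Nat.add (Nat.add 2 i) (ln w)))) (lt (dr w (Nat.add 2 i)))) (ln w)

def chkR (mul : ℕ → ℕ → ℕ) (one : ℕ) (ok : ℕ → Bool) (gs rels : List ℕ) : Bool :=
  allL (fun w => force (ev mul one gs (ln w) (dr w 2)) ok) rels

def chkI (mul : ℕ → ℕ → ℕ) (one : ℕ) (ok : ℕ → Bool) (gs : List ℕ) (I : ℕ) : Bool :=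
  allR (fun l => force (mul (getL gs one l) (getL gs one (lt (dr I l)))) ok) 16

/-- the coset table -/
def tab (T : List ℕ) (l p : ℕ) : ℕ := Nat.land (Nat.shiftRight (getL T 0 l) (Nat.mul (nat_lit 11) p)) (nat_lit 2047)
def ix (l p : ℕ) : ℕ := Nat.add (Nat.mul (nat_lit 16) p) l

def tr (T : List ℕ) (m p k : ℕ) : ℕ → ℕ → Bool := Nat.rec (motive := fun _ => ℕ → ℕ → Bool) (fun _ c => Nat.beq c p)
  (fun _ ih u c => force (lt u) fun l => band (tb m (ix l c)) (force (tab T l c) fun d => force (dr u 1) fun u' => ih u' d)) k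

def mark (T : List ℕ) (I m l p q : ℕ) (b : Bool) : ℕ := force (lt (dr I l)) fun l' =>
  bif' (band b (Nat.beq (tab T l' q) p)) (Nat.lor m (Nat.lor (Nat.pow 2 (ix l p)) (Nat.pow 2 (ix l' q)))) m

def pp (P q : ℕ) : ℕ := Nat.land (Nat.shiftRight P (Nat.mul (nat_lit 16) q)) (nat_lit 2047)
def pl (P q : ℕ) : ℕ := lt (Nat.shiftRight P (Nat.add (Nat.mul (nat_lit 16) q) (nat_lit 12)))

def step (T rels : List ℕ) (I P m s : ℕ) : ℕ := force (Nat.land s (nat_lit 2047)) fun p =>
  force (ln (Nat.shiftRight s (nat_lit 11))) fun j => force (Nat.shiftRight s (nat_lit 19)) fun r =>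
    bif' (Nat.beq r (nat_lit 255))
      (force (pp P p) fun c => force (pl P p) fun l => mark T I m l c p (band (blt' c p) (Nat.beq (tab T l c) p)))
      (force (getL rels 0 r) fun w => force (dr w (Nat.add 2 j)) fun u => force (lt u) fun l => force (tab T l p) fun q =>
        mark T I m l p q (band (blt' j (ln w)) (tr T m p (Nat.pred (ln w)) (dr u 1) q)))

def run1 (f : ℕ → ℕ → ℕ) (k : ℕ) : ℕ → ℕ → ℕ := Nat.rec (motive := fun _ => ℕ → ℕ → ℕ) (fun m _ => m)
  (fun _ ih m c => force (f m (Nat.land c (nat_lit 134217727))) fun m' => force (Nat.shiftRight c (nat_lit 27)) (ih m')) k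

def run (f : ℕ → ℕ → ℕ) (l : List ℕ) : ℕ → ℕ := List.rec (motive := fun _ => ℕ → ℕ) (fun m => m)
  (fun c _ ih m => force (run1 f (nat_lit 100) m c) ih) l

def ini (T : List ℕ) (I : ℕ) (subs : List ℕ) : ℕ := List.rec (motive := fun _ => ℕ) 0
  (fun l _ ih => force ih fun m => mark T I m (lt l) 0 0 (Nat.beq (tab T (lt l) 0) 0)) subs

def fin (T ls : List ℕ) (n m : ℕ) : Bool :=
  allL (fun l => force (lt l) fun l => allR (fun p => band (tb m (ix l p)) (blt' (tab T l p) n)) n) ls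

/-- the certificate -/
def cert (T rels : List ℕ) (I P : ℕ) (subs ls : List ℕ) (n : ℕ) (st : List ℕ) : Bool :=
  band (blt' 0 n) (band (allL per rels) (force (run (step T rels I P) st (ini T I subs)) (fin T ls n)))

variable {Γ : Type*} [Group Γ]

/-- the value of a word -/
def pr (v : ℕ → Γ) : ℕ → ℕ → Γ
  | 0, _ => 1
  | k + 1, u => v (lt u) * pr v k (dr u 1)

/-- the subgroup generated by some letters -/
def gen (v : ℕ → Γ) (ls : List ℕ) : Subgroup Γ := closure ((fun l => v (lt l)) '' {l | l ∈ ls})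

variable {v : ℕ → Γ}

theorem mem_gen {ls : List ℕ} {l : ℕ} (h : l ∈ ls) (e : lt l = l := by rfl) : v l ∈ gen v ls :=
  subset_closure ⟨l, h, congrArg v e⟩

theorem gen_le {ls : List ℕ} {H : Subgroup Γ} (h : ∀ l ∈ ls, v (lt l) ∈ H) : gen v ls ≤ H :=
  (closure_le _).2 fun _ ⟨l, a, b⟩ => b ▸ h l a

theorem gen_nil : gen v [] = ⊥ := le_bot_iff.1 (gen_le fun _ h => absurd h List.not_mem_nil)

theorem gen_map {Δ : Type*} [Group Δ] (f : Γ →* Δ) (ls : List ℕ) : (gen v ls).map f = gen (fun l => f (v l)) ls := by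
  rw [gen, MonoidHom.map_closure, Set.image_image]; rfl

theorem pr_succ' : ∀ k u, pr v (k + 1) u = pr v k u * v (lt (dr u k))
  | 0, u => by simp [pr, dr]
  | k + 1, u => by rw [pr, pr_succ' k, dr_dr, ← mul_assoc, add_comm 1]; rfl

theorem pr_mem {H : Subgroup Γ} (h : ∀ l < 16, v l ∈ H) : ∀ k u, pr v k u ∈ H
  | 0, _ => H.one_mem
  | k + 1, _ => H.mul_mem (h _ (lt_lt _)) (pr_mem h k _)

theorem pr_prod {Δ : Type*} [Group Δ] (v' : ℕ → Δ) : ∀ k u, pr (fun l => (v l, v' l)) k u = (pr v k u, pr v' k u)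
  | 0, _ => rfl
  | k + 1, u => by rw [pr, pr_prod v' k]; rfl

theorem pr_map {Δ : Type*} [Group Δ] (f : Γ →* Δ) : ∀ k u, f (pr v k u) = pr (fun l => f (v l)) k u
  | 0, _ => f.map_one
  | k + 1, u => by rw [pr, map_mul, pr_map f k]; rfl

theorem pr_rot {w : ℕ} (h : per w = true) (e : pr v (ln w) (dr w 2) = 1) : ∀ j ≤ ln w, pr v (ln w) (dr w (2 + j)) = 1
  | 0, _ => e
  | j + 1, l => by
    have a := pr_succ' (v := v) (ln w) (dr w (2 + j))
    have b : lt (dr w (2 + j + ln w)) = lt (dr w (2 + j)) := beq_iff.1 (allR_eq_true.1 h j l)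
    rw [pr_rot h e j (by omega), pr, dr_dr, dr_dr, b, one_mul] at a
    exact mul_eq_left.1 a

section
variable {X : Type*} [MulAction Γ X]

def xx (v : ℕ → Γ) (x0 : X) (P q : ℕ) : X := if pp P q < q then (v (pl P q))⁻¹ • xx v x0 P (pp P q) else x0
termination_by q

def Inv (v : ℕ → Γ) (x : ℕ → X) (T : List ℕ) (m : ℕ) : Prop :=
  ∀ l < 16, ∀ p, m.testBit (16 * p + l) = true → (v l)⁻¹ • x p = x (tab T l p)

variable {x : ℕ → X} {T : List ℕ} {I m : ℕ}

theorem tr_spec (h : Inv v x T m) {p : ℕ} : ∀ {k u c : ℕ}, tr T m p k u c = true → (pr v k u)⁻¹ • x c = x p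
  | 0, _, c, e => by rw [beq_iff.1 (show Nat.beq c p = true from e), pr, inv_one, one_smul]
  | k + 1, u, c, e => by
    have e' : (force (lt u) fun l => band (tb m (ix l c)) (force (tab T l c) fun d => force (dr u 1) fun u' =>
      tr T m p k u' d)) = true := e
    simp only [force_eq, band_eq_true, tb_eq_true] at e'
    rw [pr, mul_inv_rev, mul_smul, h _ (lt_lt u) c e'.1, tr_spec h e'.2]

theorem mark_spec (hv : ∀ l < 16, v l * v (lt (dr I l)) = 1) (h : Inv v x T m) {l p q : ℕ} {b : Bool} (hl : l < 16)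
    (e : b = true → tab T l p = q ∧ (v l)⁻¹ • x p = x q) : Inv v x T (mark T I m l p q b) := by
  simp only [mark, force_eq, bif'_eq, band_eq_true, beq_iff]
  split_ifs with c
  · intro k hk r t
    obtain ⟨e1, e2⟩ := e c.1
    have t' : (m ||| (2 ^ (16 * p + l) ||| 2 ^ (16 * q + lt (dr I l)))).testBit (16 * r + k) = true := t
    have := lt_lt (dr I l)
    simp only [Nat.testBit_or, Bool.or_eq_true, Nat.testBit_two_pow, decide_eq_true_eq] at t'
    rcases t' with t | t | t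
    · exact h k hk r t
    · obtain ⟨rfl, rfl⟩ : p = r ∧ l = k := by omega
      rw [e1, e2]
    · obtain ⟨rfl, rfl⟩ : q = r ∧ lt (dr I l) = k := by omega
      rw [c.2, ← e2, ← eq_inv_of_mul_eq_one_left (hv l hl), smul_inv_smul]
  · exact h

theorem step_spec {rels : List ℕ} {P : ℕ} {x0 : X} (hv : ∀ l < 16, v l * v (lt (dr I l)) = 1)
    (hr : ∀ w ∈ rels, ∀ j ≤ ln w, pr v (ln w) (dr w (2 + j)) = 1) (s : ℕ) (h : Inv v (xx v x0 P) T m) :
    Inv v (xx v x0 P) T (step T rels I P m s) := by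
  simp only [step, force_eq, bif'_eq]
  split_ifs
  · refine mark_spec hv h (lt_lt _) fun e => ?_
    rw [band_eq_true, blt'_eq_true, beq_iff] at e
    exact ⟨e.2, by rw [xx.eq_def v x0 P (Nat.land s _), if_pos e.1]⟩
  · refine mark_spec hv h (lt_lt _) fun e => ⟨rfl, ?_⟩
    rw [band_eq_true, blt'_eq_true] at e
    generalize hw : getL rels 0 _ = w at e ⊢
    have a := hr w ((hw ▸ getL_mem rels 0 _).resolve_left fun z => by simp [z, ln] at e) _ e.1.le
    obtain ⟨k, hk⟩ : ∃ k, ln w = k + 1 := ⟨_, (Nat.succ_pred_eq_of_pos (Nat.zero_lt_of_lt e.1)).symm⟩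
    have b := tr_spec h e.2
    rw [hk] at a b
    rw [← b, inv_smul_eq_iff]
    exact congrArg (· • _) (eq_inv_of_mul_eq_one_left a).symm

theorem run_spec {Q : ℕ → Prop} {f : ℕ → ℕ → ℕ} (hf : ∀ m s, Q m → Q (f m s)) : ∀ (l : List ℕ) (m : ℕ), Q m → Q (run f l m)
  | [], _, h => h
  | c :: l, m, h => by
    have a : ∀ k m c, Q m → Q (run1 f k m c) := fun k => by
      induction k with
      | zero => exact fun _ _ h => h
      | succ k ih =>
        intro m c h
        show Q (force _ fun m' => force _ (run1 f k m'))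
        rw [force_eq, force_eq]
        exact ih _ _ (hf _ _ h)
    show Q (force _ (run f l))
    rw [force_eq]
    exact run_spec hf l _ (a _ _ _ h)

theorem ini_spec (hv : ∀ l < 16, v l * v (lt (dr I l)) = 1) : ∀ {subs : List ℕ},
    (∀ l ∈ subs, v (lt l) • x 0 = x 0) → Inv v x T (ini T I subs)
  | [], _ => fun _ _ _ h => by simp [ini] at h
  | l :: s, h => by
    show Inv v x T (force (ini T I s) fun m => mark T I m (lt l) 0 0 (Nat.beq (tab T (lt l) 0) 0))
    rw [force_eq]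
    exact mark_spec hv (ini_spec hv fun a b => h a (List.mem_cons_of_mem _ b)) (lt_lt _) fun e =>
      ⟨beq_iff.1 e, inv_smul_eq_iff.2 (h l List.mem_cons_self).symm⟩

end

/-- the order bound given by a certificate -/
theorem card_le [Finite Γ] {T rels subs ls st : List ℕ} {I P n : ℕ} (h : cert T rels I P subs ls n st = true)
    (hv : ∀ l < 16, v l * v (lt (dr I l)) = 1) (hr : ∀ w ∈ rels, pr v (ln w) (dr w 2) = 1) :
    Nat.card (gen v ls) ≤ n * Nat.card (gen v subs) := by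
  simp only [cert, band_eq_true, blt'_eq_true, force_eq, allL_eq_true, fin, allR_eq_true, tb_eq_true] at h
  obtain ⟨h0, h1, h2⟩ := h
  generalize hH : gen v subs = H
  let x := xx v ((1 : Γ) : Γ ⧸ H) P
  have x0 : x 0 = ((1 : Γ) : Γ ⧸ H) := by rw [show x 0 = _ from xx.eq_def ..]; simp
  have a := run_spec (Q := Inv v x T) (fun m s => step_spec hv (fun w b => pr_rot (h1 w b) (hr w b)) s) st _
    (ini_spec (T := T) (subs := subs) hv fun l b => by
      rw [x0]
      show ((v (lt l) * 1 : Γ) : Γ ⧸ H) = _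
      rw [eq_comm, QuotientGroup.eq]
      simpa using hH ▸ (subset_closure ⟨l, b, rfl⟩ : v (lt l) ∈ gen v subs))
  have p : ∀ g : Γ, (∀ c < n, ∃ e < n, g • x c = x e) → ∀ k : ℕ, ∀ c < n, ∃ e < n, g ^ k • x c = x e := fun g b k => by
    induction k with
    | zero => exact fun c d => ⟨c, d, by simp⟩
    | succ k ih => exact fun c d => let ⟨e, f, i⟩ := b c d; let ⟨e', f', i'⟩ := ih e f; ⟨e', f', by rw [pow_succ, mul_smul, i, i']⟩
  have q : ∀ g : Γ, (∀ c < n, ∃ e < n, g • x c = x e) → ∀ c < n, ∃ e < n, g⁻¹ • x c = x e := fun g b => by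
    rw [inv_eq_of_mul_eq_one_left ((pow_succ g (orderOf g - 1)).symm.trans (by
      rw [Nat.sub_add_cancel (orderOf_pos g), pow_orderOf_eq_one]))]
    exact p g b _
  have main : ∀ g ∈ gen v ls, ∀ c < n, ∃ e < n, g • x c = x e := fun g hg => by
    induction hg using closure_induction with
    | mem g hg =>
      obtain ⟨l, hl, rfl⟩ := hg
      simpa only [inv_inv] using q _ fun c d => ⟨_, (h2 l hl c d).2, a _ (lt_lt l) c (h2 l hl c d).1⟩
    | one => exact fun c d => ⟨c, d, one_smul _ _⟩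
    | mul a b _ _ ha hb => exact fun c d => let ⟨e, f, i⟩ := hb c d; let ⟨e', f', i'⟩ := ha e f; ⟨e', f', by rw [mul_smul, i, i']⟩
    | inv a _ ha => exact q a ha
  choose c hc hx using fun g : gen v ls => main g g.2 0 h0
  have hm : ∀ g : gen v ls, (x (c g)).out⁻¹ * g ∈ H := fun g => by
    rw [← QuotientGroup.eq, QuotientGroup.out_eq', ← hx g, x0]
    show ((g * 1 : Γ) : Γ ⧸ H) = _
    rw [mul_one]
  refine (Nat.card_le_card_of_injective (fun g : gen v ls => ((⟨c g, hc g⟩, ⟨_, hm g⟩) : Fin n × H)) fun a b e => ?_).trans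
    (by rw [Nat.card_prod, Nat.card_fin])
  have e1 : c a = c b := congrArg (fun z => z.1.1) e
  have e2 : (x (c a)).out⁻¹ * a = (x (c b)).out⁻¹ * b := congrArg (fun z => (z.2 : Γ)) e
  rw [e1] at e2
  exact Subtype.ext (mul_left_cancel e2)

/-- codes for the elements of a group -/
structure Cd (Γ : Type*) [Group Γ] (mul : ℕ → ℕ → ℕ) (one : ℕ) (ok : ℕ → Bool) where
  R : Γ → ℕ → Prop
  r1 : R 1 one
  rm : ∀ {g h A B}, R g A → R h B → R (g * h) (mul A B)
  ro : ∀ {g A}, R g A → ok A = true → g = 1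

namespace Cd
variable {mul : ℕ → ℕ → ℕ} {one : ℕ} {ok : ℕ → Bool} (C : Cd Γ mul one ok) {gs : List ℕ}

theorem exists_v (h : ∀ A ∈ gs, ∃ g, C.R g A) : ∃ v : ℕ → Γ, ∀ l, C.R (v l) (getL gs one l) :=
  Classical.skolem.1 fun l => (getL_mem gs one l).elim (fun e => ⟨1, e.symm ▸ C.r1⟩) (h _)

variable {C} (h : ∀ l, C.R (v l) (getL gs one l))
include h

theorem ev_spec : ∀ k u, C.R (pr v k u) (ev mul one gs k u)
  | 0, _ => C.r1
  | k + 1, u => by
    show C.R _ (force _ fun a => force (ev mul one gs k (dr u 1)) (mul a))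
    rw [force_eq, force_eq]
    exact C.rm (h _) (ev_spec k _)

theorem rels {rels : List ℕ} (e : chkR mul one ok gs rels = true) : ∀ w ∈ rels, pr v (ln w) (dr w 2) = 1 := fun w a =>
  C.ro (ev_spec h _ _) ((force_eq _ _).symm.trans (allL_eq_true.1 e w a))

theorem invs {I : ℕ} (e : chkI mul one ok gs I = true) : ∀ l < 16, v l * v (lt (dr I l)) = 1 := fun l a =>
  C.ro (C.rm (h _) (h _)) ((force_eq _ _).symm.trans (allR_eq_true.1 e l a))

end Cd

/-- the codes given by the representation of degree 112 -/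
def cdG [Finite Γ] (M : FR Γ) : Cd Γ mx II (Nat.beq II) where
  R := M.R
  r1 := FR.one
  rm := FR.R.mul
  ro a e := a.eq FR.one (beq_iff.1 e).symm

/-- the homomorphism given by a diagonal subgroup -/
theorem exists_hom {Δ : Type*} [Group Δ] [Finite Γ] [Finite Δ] {v' : ℕ → Δ} {ls : List ℕ} (ht : gen v' ls = ⊤)
    (hc : Nat.card (gen (fun l => (v l, v' l)) ls) ≤ Nat.card Δ) : ∃ φ : Δ →* Γ, φ.range = gen v ls := by
  set D := gen (fun l => (v l, v' l)) ls
  have s : Function.Surjective ((MonoidHom.snd Γ Δ).comp D.subtype) := fun y => by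
    have : y ∈ D.map (MonoidHom.snd Γ Δ) := by rw [gen_map]; exact ht ▸ mem_top y
    obtain ⟨d, a, b⟩ := this
    exact ⟨⟨d, a⟩, b⟩
  let e := MulEquiv.ofBijective _ (s.bijective_of_nat_card_le hc)
  refine ⟨((MonoidHom.fst Γ Δ).comp D.subtype).comp e.symm.toMonoidHom, ?_⟩
  rw [MonoidHom.range_comp, MonoidHom.range_eq_top.2 e.symm.surjective, ← MonoidHom.range_eq_map, MonoidHom.range_comp,
    range_subtype, gen_map]
  rfl

theorem prod_rels {Δ : Type*} [Group Δ] {v' : ℕ → Δ} {rels : List ℕ} (a : ∀ w ∈ rels, pr v (ln w) (dr w 2) = 1)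
    (b : ∀ w ∈ rels, pr v' (ln w) (dr w 2) = 1) : ∀ w ∈ rels, pr (fun l => (v l, v' l)) (ln w) (dr w 2) = 1 := fun w c => by
  rw [pr_prod, a w c, b w c]; rfl

theorem prod_invs {Δ : Type*} [Group Δ] {v' : ℕ → Δ} {I : ℕ} (a : ∀ l < 16, v l * v (lt (dr I l)) = 1)
    (b : ∀ l < 16, v' l * v' (lt (dr I l)) = 1) : ∀ l < 16, (v l, v' l) * (v (lt (dr I l)), v' (lt (dr I l))) = 1 :=
  fun l c => Prod.ext (a l c) (b l c)

end

theorem realizeEqns_J4yId : True := by
  have := @CA.J4y.run.eq_1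
  have := @CA.J4y.run.eq_def
  have := @CA.J4y.run.congr_simp
  have := @CA.J4y.pl.eq_1
  have := @CA.J4y.pl.eq_def
  have := @CA.J4y.pl.congr_simp
  have := @CA.J4y.step.eq_1
  have := @CA.J4y.step.eq_def
  have := @CA.J4y.step.congr_simp
  have := @CA.J4y.pr.eq_1.{0}
  have := @CA.J4y.pr.eq_2.{0}
  have := @CA.J4y.pr.eq_def.{0}
  have := @CA.J4y.pr.congr_simp.{0}
  have := @CA.J4y.chkI.eq_1
  have := @CA.J4y.chkI.eq_def
  have := @CA.J4y.chkI.congr_simp
  have := @CA.J4y.ini.eq_1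
  have := @CA.J4y.ini.eq_def
  have := @CA.J4y.ini.congr_simp
  have := @CA.J4y.cert.eq_1
  have := @CA.J4y.cert.eq_def
  have := @CA.J4y.cert.congr_simp
  have := @CA.J4y.tab.eq_1
  have := @CA.J4y.tab.eq_def
  have := @CA.J4y.tab.congr_simp
  have := @CA.J4y.ev.eq_1
  have := @CA.J4y.ev.eq_def
  have := @CA.J4y.ev.congr_simp
  have := @CA.J4y.run1.eq_1
  have := @CA.J4y.run1.eq_def
  have := @CA.J4y.run1.congr_simp
  have := @CA.J4y.per.eq_1
  have := @CA.J4y.per.eq_def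
  have := @CA.J4y.per.congr_simp
  have := @CA.J4y.dr.eq_1
  have := @CA.J4y.dr.eq_def
  have := @CA.J4y.dr.congr_simp
  have := @CA.J4y.ln.eq_1
  have := @CA.J4y.ln.eq_def
  have := @CA.J4y.ln.congr_simp
  have := @CA.J4y.mark.eq_1
  have := @CA.J4y.mark.eq_def
  have := @CA.J4y.mark.congr_simp
  have := @CA.J4y.lt.eq_1
  have := @CA.J4y.lt.eq_def
  have := @CA.J4y.lt.congr_simp
  have := @CA.J4y.tr.eq_1
  have := @CA.J4y.tr.eq_def
  have := @CA.J4y.tr.congr_simp
  have := @CA.J4y.cdG.eq_1.{0}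
  have := @CA.J4y.cdG.eq_def.{0}
  have := @CA.J4y.cdG.congr_simp.{0}
  have := @CA.J4y.Inv.eq_1.{0,0}
  have := @CA.J4y.Inv.eq_def.{0,0}
  have := @CA.J4y.Inv.congr_simp.{0,0}
  have := @CA.J4y.pp.eq_1
  have := @CA.J4y.pp.eq_def
  have := @CA.J4y.pp.congr_simp
  have := @CA.J4y.fin.eq_1
  have := @CA.J4y.fin.eq_def
  have := @CA.J4y.fin.congr_simp
  have := @CA.J4y.ix.eq_1
  have := @CA.J4y.ix.eq_def
  have := @CA.J4y.ix.congr_simp
  have := @CA.J4y.xx.eq_1.{0,0}
  have := @CA.J4y.xx.eq_def.{0,0}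
  have := @CA.J4y.xx.congr_simp.{0,0}
  have := @CA.J4y.chkR.eq_1
  have := @CA.J4y.chkR.eq_def
  have := @CA.J4y.chkR.congr_simp
  have := @CA.J4y.gen.eq_1.{0}
  have := @CA.J4y.gen.eq_def.{0}
  have := @CA.J4y.gen.congr_simp.{0}
  trivial

end CA.J4y
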