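/-
A maximal subgroup `L₂(32):5` of the fourth Janko group.
-/
import Cfsg.Agent.J4y.WQa

set_option autoImplicit false
set_option maxRecDepth 100000
set_option linter.unusedSectionVars false
set_option Elab.async false

namespace CA.J4y

open CA.M24 CA.Fi CA.FG CA.J4 CA.J4.HM CA.J4o CA.J4x Cfsg Subgroup

noncomputable section

abbrev PQ : Type := Matrix.ProjectiveSpecialLinearGroup (Fin 2) F32

theorem card_PQ : Nat.card PQ = 32736 := by
  have := Agent.Lin.card_PSL F32.card 2 (by norm_num)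
  rw [show ∏ i : Fin 2, (32 ^ 2 - 32 ^ (i : ℕ)) = 1014816 by decide, show Nat.gcd 2 (32 - 1) = 1 from rfl] at this
  change 1 * (31 * Nat.card PQ) = _ at this
  omega

theorem simple_PQ : IsSimpleGroup PQ :=
  Matrix.ProjectiveSpecialLinearGroup.rank_two_simple (by rw [Nat.card_eq_fintype_card, F32.card]; norm_num)

def nok32 (A : ℕ) : Bool := decide (t32 (mu32 A 0x1020001) ≠ t32 (mu32 0x1020001 A))

theorem exPQ : ∃ v : ℕ → PQ, gen v [0, 1, 2, 3] = ⊤ ∧ (∀ l < 16, v l * v (lt (dr IQ l)) = 1) ∧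
    ∀ w ∈ rlQ, pr v (ln w) (dr w 2) = 1 := by
  obtain ⟨v, h⟩ := cd32.exists_v (gs := hsQ) fun A hA =>
    let ⟨k, e⟩ := in32 ((by decide +kernel : ∀ A ∈ hsQ, (t32 A).det = 1) A hA); ⟨k, k, rfl, e⟩
  have := simple_PQ
  have d : ∀ {k u p : ℕ}, p.Prime → ordC mu32 0x1000001 ok2 nok32 hsQ k u p = true → wIn [0, 1, 2, 3] k u = true →
      p ∣ Nat.card (gen v [0, 1, 2, 3]) := fun hp a b => Cd.ord (nok := nok32)
    (fun a e => cdQ_ne t32_mul a (in32 (by decide +kernel)) (of_decide_eq_true e)) h hp a ▸ orderOf_dvd_card_of_mem (pr_gen b)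
  exact ⟨v, top_of_idx (p := 31) (d := 31 * (11 * (3 * 2))) (m := 16) (by norm_num) (Nat.Coprime.mul_dvd_of_dvd_of_dvd (by norm_num)
    (d (k := 1) (u := 0) (by norm_num) (by decide +kernel) (by decide +kernel)) (Nat.Coprime.mul_dvd_of_dvd_of_dvd (by norm_num)
      (d (k := 3) (u := 0x230) p11 (by decide +kernel) (by decide +kernel)) (Nat.Coprime.mul_dvd_of_dvd_of_dvd (by norm_num)
        (d (k := 2) (u := 0x32) Nat.prime_three (by decide +kernel) (by decide +kernel))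
        (d (k := 1) (u := 2) Nat.prime_two (by decide +kernel) (by decide +kernel))))) card_PQ (by norm_num) (by norm_num),
    Cd.invs h (by decide +kernel), Cd.rels h (by decide +kernel)⟩

variable {G : Type*} [Group G] [Finite G] {M : FR G}

theorem isoQ {v : ℕ → G} (h : ∀ l, M.R (v l) (getL gsQ II l)) : Nonempty (gen v [0, 1, 2, 3] ≃* PQ) := by
  obtain ⟨v', t, a, b⟩ := exPQ
  have a := prod_invs (Cd.invs (C := cdG M) h (by decide +kernel)) a
  have b := prod_rels (Cd.rels (C := cdG M) h (by decide +kernel)) b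
  have c1 := card_le e1Q a b
  have c2 := card_le e2Q a b
  have c3 := card_le e3Q a b
  rw [gen_nil, card_bot] at c1
  have := simple_PQ
  exact iso_of_simple (exists_hom (v := v) t (by rw [card_PQ]; omega)) (mem_gen (l := 2) (by decide)) ((h 2).ne (by decide +kernel))

theorem cj_mem {K : Subgroup G} {s g : G} {S A n : ℕ} (a : M.R s S) (b : M.R g A) (k : g ∈ K) (e : mx S A = mx (pwS A n) S) :
    s * g * s⁻¹ ∈ K := by
  rw [(a.mul b).eq ((b.pwS n).mul a) e, mul_inv_cancel_right]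
  exact pow_mem k n

def wWQ : List (List ℕ × ℕ) := wQ_0 ++ (wQ_1 ++ (wQ_2 ++ (wQ_3 ++ (wQ_4 ++ (wQ_5 ++ (wQ_6 ++ (wQ_7 ++ (wQ_8 ++ (wQ_9 ++ (wQ_10 ++ (wQ_11 ++ (wQ_12 ++ (wQ_13 ++ (wQ_14 ++ (wQ_15 ++ (wQ_16 ++ (wQ_17)))))))))))))))))

theorem l32 [IsSimpleGroup G] (X : HM G) [Fact X.Fu] (hb : ∀ A ∈ [MT, MY, MX], M.In ⊤ A) :
    ∃ M : Subgroup G, IsCoatom M ∧ ∃ (K : Subgroup M) (F : Type) (_ : Field F) (_ : Fintype F),
      Fintype.card F = 32 ∧ K.Normal ∧ K.index = 5 ∧ Nonempty (K ≃* Matrix.ProjectiveSpecialLinearGroup (Fin 2) F) := by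
  obtain ⟨v, h⟩ := ex_gs (ex_v hb slpQ (l := gsQ) (by decide +kernel))
  obtain ⟨f, -, k⟩ := ex_v hb slpQ (l := [fQ]) (by decide +kernel) fQ List.mem_cons_self
  obtain ⟨e⟩ := isoQ h
  have c := (Nat.card_congr e.toEquiv).trans card_PQ
  have o := k.ord (l := [0, 1]) Nat.prime_five rfl (by decide +kernel)
  have m : ∀ l < 4, v l ∈ gen v [0, 1, 2, 3] := fun l a => by interval_cases l <;> exact mem_gen (by decide)
  obtain ⟨a1, a2, a3, ⟨a4⟩⟩ := ext_prime Nat.prime_five (K := gen v [0, 1, 2, 3]) (norm_gen (List.forall_mem_cons.2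
    ⟨cj_mem (n := jQ) k (h 0) (m 0 (by norm_num)) (by decide +kernel), List.forall_mem_cons.2
      ⟨cj_mem (n := jQ) k (h 1) (m 1 (by norm_num)) (by decide +kernel), List.forall_mem_cons.2
        ⟨cj_mem (n := 1) k (h 2) (m 2 (by norm_num)) (by decide +kernel), List.forall_mem_singleton.2
          (cj_mem (n := 1) k (h 3) (m 3 (by norm_num)) (by decide +kernel))⟩⟩⟩))
    (fun t => absurd (c ▸ o ▸ orderOf_dvd_card_of_mem t) (by norm_num)) (o ▸ pow_orderOf_eq_one f)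
  have w : M.R (pr v lQ cQ) wQ := (by decide +kernel : ev mx II gsQ lQ cQ = wQ) ▸ Cd.ev_spec (C := cdG M) h lQ cQ
  have y := (h 2).mul (h 3)
  have oy := y.ord (l := [0, 0]) Nat.prime_three rfl (by decide +kernel)
  have o2 := (h 3).ord (l := [1]) Nat.prime_two rfl (by decide +kernel)
  have s : zpowers f ⊔ (zpowers (v 2) ⊔ zpowers (v 3)) ≤ gen v [0, 1, 2, 3] ⊔ zpowers f := sup_le le_sup_right
    (le_sup_left.trans' (sup_le (zpowers_le.2 (m 2 (by norm_num))) (zpowers_le.2 (m 3 (by norm_num)))))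
  have z : 5 * (3 * 2) ∣ Nat.card ↥(zpowers f ⊔ (zpowers (v 2) ⊔ zpowers (v 3))) := Nat.Coprime.mul_dvd_of_dvd_of_dvd (by norm_num)
    (o ▸ orderOf_dvd_card_of_mem (mem_sup_left (mem_zpowers f))) (Nat.Coprime.mul_dvd_of_dvd_of_dvd (by norm_num)
      ((dvd_of_eq oy.symm).trans (orderOf_dvd_card_of_mem (mem_sup_right (mul_mem_sup (mem_zpowers _) (mem_zpowers _)))))
      ((dvd_of_eq o2.symm).trans (orderOf_dvd_card_of_mem (mem_sup_right (mem_sup_right (mem_zpowers _))))))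
  refine ⟨_, maxQ X (by rw [a1, c]) o (w.ord (l := b11) p11 rfl (by decide +kernel)) oy (mem_sup_right (mem_zpowers f))
    (mem_sup_left (pr_gen (by decide +kernel))) (mem_sup_left (mul_mem (m 2 (by norm_num)) (m 3 (by norm_num))))
    (mem_norm_zp ((k.mul w).eq ((w.pwS iQ).mul k) (by decide +kernel))) (comm y w (by decide +kernel)) fun H l a b d => ?_,
    _, F32, inferInstance, inferInstance, F32.card, a2, a3, ⟨a4.trans e⟩⟩
  exact (cosetsZ (m := mQ) (T := TQ) (b := b23) (l := wWQ) (sup_le le_normalizer (norm_zpowers_of_cent (sup_le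
      (zpowers_le.2 (mem_cent_iff.2 (comm (h 2) k (by decide +kernel)))) (zpowers_le.2 (mem_cent_iff.2 (comm (h 3) k
        (by decide +kernel)))))))
    (sup_le (mem_stab (w := vQ) k (by decide +kernel)) (sup_le (mem_stab (h 2) (by decide +kernel))
      (mem_stab (h 3) (by decide +kernel)))) (by decide +kernel)
    (walk_spec (FR.stL_in (norm_in k (l := nQ) (by decide +kernel) (ex_v hb slpQ (by decide +kernel))))
      (walk_app (walk_app (walk_app (walk_app (walk_app (walk_app (walk_app (walk_app (walk_app (walk_app (walk_app (walk_app (walk_app (walk_app (walk_app (walk_app (walk_app cQ_17 cQ_16) cQ_15) cQ_14) cQ_13) cQ_12) cQ_11) cQ_10) cQ_9) cQ_8) cQ_7) cQ_6) cQ_5) cQ_4) cQ_3) cQ_2) cQ_1) cQ_0) ⟨1, one_mem _, FR.one⟩).2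
    (by rw [card_N5 (X := X) ((Nat.card_zpowers f).trans o), show wWQ.length = 895 by decide +kernel]
        exact Nat.mul_le_mul_left 896 (Nat.le_of_dvd Nat.card_pos z))
    (by norm_num) rfl (s.trans l) (FR.slp_spec (o := uQ) (l := qQ) (T := bQ) (by decide +kernel) (List.forall_mem_cons.2
      ⟨⟨_, l (mem_sup_left (m 3 (by norm_num))), h 3⟩, List.forall_mem_cons.2 ⟨⟨_, l (mem_sup_left (m 2 (by norm_num))), h 2⟩,
        List.forall_mem_cons.2 ⟨⟨_, l (mem_sup_right (mem_zpowers f)), k⟩,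
          List.forall_mem_singleton.2 ⟨_, l (mem_sup_left (m 0 (by norm_num))), h 0⟩⟩⟩⟩)) a b d).imp_left fun t => s t

end

theorem realizeEqns_J4yL2 : True := by
  have := @CA.J4y.nok32.eq_1
  have := @CA.J4y.nok32.eq_def
  have := @CA.J4y.nok32.congr_simp
  have := @CA.J4y.wWQ.eq_1
  have := @CA.J4y.wWQ.eq_def
  have := @CA.J4y.wWQ.congr_simp
  have := @CA.J4y.PQ.eq_1
  have := @CA.J4y.PQ.eq_def
  have := @CA.J4y.PQ.congr_simp
  trivial

end CA.J4y
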