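/-
Maximality criteria for three subgroups of the fourth Janko group.
-/
import Cfsg.Agent.J4y.Cod

set_option autoImplicit false
set_option maxRecDepth 100000
set_option linter.unusedSectionVars false

namespace CA.J4y

open CA.M24 CA.Fi CA.FG CA.J4 CA.J4.HM CA.J4o CA.J4x Cfsg Subgroup

noncomputable section

variable {G : Type*} [Group G] [Finite G]

def wIn (ls : List ℕ) (k u : ℕ) : Bool := allR (fun i => anyL (fun a => Nat.beq (lt (dr u i)) (lt a)) ls) k

theorem pr_gen {v : ℕ → G} {ls : List ℕ} : ∀ {k u : ℕ}, wIn ls k u = true → pr v k u ∈ gen v ls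
  | 0, _, _ => one_mem _
  | k + 1, u, h => by
    obtain ⟨a, b, c⟩ := anyL_eq_true.1 (allR_eq_true.1 h 0 k.succ_pos)
    refine mul_mem (subset_closure ⟨a, b, congrArg v (beq_iff.1 c).symm⟩) (pr_gen (allR_eq_true.2 fun i l => ?_))
    rw [dr_dr, add_comm]
    exact allR_eq_true.1 h (i + 1) (Nat.succ_lt_succ l)

theorem dih {a b : G} (h1 : b * b = 1) (h2 : b * a * (b * a) = 1) (h3 : a * a ≠ 1) :
    Nat.card ↥(zpowers a ⊔ zpowers b) = orderOf a * 2 := by
  have e : b * a * b⁻¹ = a⁻¹ := by rw [← eq_inv_of_mul_eq_one_left h1, eq_inv_iff_mul_eq_one, mul_assoc, h2]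
  rw [BG.P04.card_sup_zpowers Nat.prime_two (mem_norm_of_forall fun x hx => ?_) (fun f => h3 ?_) (by rw [sq, h1]; exact one_mem _),
    Nat.card_zpowers]
  · obtain ⟨n, rfl⟩ := mem_zpowers_iff.1 hx
    rw [← conj_zpow, e]
    exact zpow_mem (inv_mem (mem_zpowers a)) n
  · obtain ⟨n, rfl⟩ := mem_zpowers_iff.1 f
    rw [((Commute.refl a).zpow_left n).eq, mul_inv_cancel_right] at e
    exact mul_eq_one_iff_eq_inv.2 e

theorem top_of_idx [IsSimpleGroup G] {H : Subgroup G} {p d m : ℕ} (hp : p.Prime) (h : d ∣ Nat.card H) (e : Nat.card G = d * m)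
    (a : p ∣ d) (b : m < p) : H = ⊤ := by
  by_contra n
  have c : H.normalCore.index ∣ H.index.factorial := by
    rw [normalCore_eq_ker, index_ker, index_eq_card, ← Nat.card_perm]
    exact card_subgroup_dvd_card (MulAction.toPermHom G (G ⧸ H)).range
  rw [H.normalCore_normal.eq_bot_or_eq_top.resolve_right fun f => n (top_le_iff.1 (f ▸ H.normalCore_le)), index_bot, e] at c
  obtain ⟨k, f⟩ := h
  have i := H.card_mul_index
  have m0 : 0 < d * m := e ▸ Nat.card_pos
  rw [f, e, mul_assoc] at i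
  have j := Nat.le_of_dvd (Nat.pos_of_mul_pos_left m0) ⟨k, (Nat.eq_of_mul_eq_mul_left (Nat.pos_of_mul_pos_right m0) i).symm.trans
    (mul_comm _ _)⟩
  exact absurd ((hp.dvd_factorial).1 ((a.mul_right m).trans c)) (by omega)

/-- an isomorphism from a homomorphism defined on a simple group -/
theorem iso_of_simple {Δ : Type*} [Group Δ] [IsSimpleGroup Δ] {K : Subgroup G} (h : ∃ φ : Δ →* G, φ.range = K) {g : G}
    (a : g ∈ K) (b : g ≠ 1) : Nonempty (K ≃* Δ) := by
  obtain ⟨φ, rfl⟩ := h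
  refine ⟨(φ.ofInjective (φ.ker_eq_bot_iff.1 (φ.normal_ker.eq_bot_or_eq_top.resolve_right fun f => b ?_))).symm⟩
  obtain ⟨x, rfl⟩ := a
  exact φ.mem_ker.1 (f ▸ mem_top x)

theorem ext_prime {p : ℕ} (hp : p.Prime) {K : Subgroup G} {s : G} (n : s ∈ 𝒩(K)) (a : s ∉ K) (b : s ^ p = 1) :
    Nat.card ↥(K ⊔ zpowers s) = Nat.card K * p ∧ (K.subgroupOf (K ⊔ zpowers s)).Normal ∧
      (K.subgroupOf (K ⊔ zpowers s)).index = p ∧ Nonempty (K.subgroupOf (K ⊔ zpowers s) ≃* K) :=
  ⟨BG.P04.card_sup_zpowers hp n a (b ▸ one_mem _), (normal_subgroupOf_iff_le_normalizer le_sup_left).2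
    (sup_le le_normalizer (zpowers_le.2 n)), BG.P04.relIndex_sup_zpowers hp n a (b ▸ one_mem _),
    ⟨subgroupOfEquivOfLe le_sup_left⟩⟩

theorem norm_gen {v : ℕ → G} {ls : List ℕ} {s : G} (h : ∀ l ∈ ls, s * v (lt l) * s⁻¹ ∈ gen v ls) : s ∈ 𝒩(gen v ls) :=
  mem_norm_of_forall fun _ hx => (gen_le (H := (gen v ls).comap (MulAut.conj s).toMonoidHom) h) hx

/-- the stabiliser of a vector -/
def stab (M : FR G) (w : ℕ) : Subgroup G where
  carrier := {g | M.ρ g * toM w = toM w}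
  one_mem' := by simp
  mul_mem' {a b} h k := by
    show M.ρ (a * b) * toM w = toM w
    rw [map_mul, mul_assoc, k, h]
  inv_mem' {a} h := by
    show M.ρ a⁻¹ * toM w = toM w
    conv_lhs => rw [← show M.ρ a * toM w = toM w from h, ← mul_assoc, ← map_mul, inv_mul_cancel, map_one, one_mul]

theorem mem_stab {M : FR G} {g : G} {A w : ℕ} (r : M.R g A) (h : mx A w = w) : zpowers g ≤ stab M w :=
  zpowers_le.2 (show M.ρ g * toM w = toM w by rw [r, ← toM_mx, h])

theorem cosetsZ {M : FR G} {K Z H : Subgroup G} {v m p : ℕ} {T b : List ℕ} {l : List (List ℕ × ℕ)} (hZ : Z ≤ K)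
    (hv : Z ≤ stab M v) (nd : ndM (Nat.mod (c0 v) m :: keys l) 0 = true)
    (h : ∀ a ∈ l, ∃ S, M.In K S ∧ okS (FR.fpV v) m T [b] S a.2 = true) (e : Nat.card K ≤ (l.length + 1) * Nat.card Z)
    (hp : p.Prime) (q : ex b = p + 1) (zH : Z ≤ H) (hT : ∀ A ∈ T, M.In H A) : ∀ k ∈ H, k ∈ K → k ∈ Z ∨ p ∣ Nat.card H := by
  have := cover hZ (fun w => M.ρ w * toM v) (fun w z hz => by simp only [map_mul, mul_assoc, show M.ρ z * toM v = _ from hv hz])
    (P := fun w => w = 1 ∨ ∃ S k, M.R w S ∧ tsts T S [b] k = true) (ndM_spec nd).1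
    (List.forall_mem_cons.2 ⟨⟨1, K.one_mem, ⟨v, by simp, rfl⟩, .inl rfl⟩, List.forall_mem_map.2 fun a ha => by
      obtain ⟨S, ⟨w, b, c⟩, d⟩ := h a ha
      rw [okS, band_eq_true, beq_iff] at d
      exact ⟨w, b, ⟨_, by rw [c, ← toM_mx]; rfl, d.1⟩, .inr ⟨_, _, c, d.2⟩⟩⟩)
  rw [List.length_cons, keys, List.length_map] at this
  intro k kH kK
  obtain ⟨w, a, b⟩ := this.2 e k kK
  rcases a with rfl | ⟨S, j, c, d⟩
  · exact .inl (by simpa using b)
  · exact .inr (FR.dvd_of_tsts d ⟨w, by simpa using H.mul_mem kH (H.inv_mem (zH b)), c⟩ hT hp List.mem_cons_self q)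

def nChk (s : ℕ) (l : List (ℕ × ℕ)) : Bool := allL (fun a => force (pwS s a.2) fun b => Nat.beq (mx a.1 s) (mx b a.1)) l

theorem norm_in {M : FR G} {g : G} {S : ℕ} {l : List (ℕ × ℕ)} (a : M.R g S) (h : nChk S l = true)
    (b : ∀ A ∈ l.map Prod.fst, M.In ⊤ A) : ∀ A ∈ l.map Prod.fst, M.In 𝒩(zpowers g) A := fun A hA => by
  obtain ⟨k, -, r⟩ := b A hA
  obtain ⟨c, d, rfl⟩ := List.mem_map.1 hA
  exact ⟨k, mem_norm_zp ((r.mul a).eq ((a.pwS c.2).mul r) (by
    simpa only [force_eq, beq_iff] using allL_eq_true.1 h c d)), r⟩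

theorem idx_one {p : ℕ} (hp : p.Prime) {P M H : Subgroup G} (c : Nat.card P = p) (a : P ≤ M) (b : ¬ p * p ∣ Nat.card M)
    (l : M ≤ H) (h : ∀ k ∈ H, k ∈ 𝒩(P) → k ∈ M) : cg (Nat.card H) (Nat.card M) p = true := by
  have e : H ⊓ 𝒩(P) ≤ M := fun k hk => h k hk.1 hk.2
  have s := sylow_count hp (sylow_of_sylow_norm hp (a.trans l) (sylow_of_sq hp c (le_inf (a.trans l) le_normalizer)
    fun f => b (f.trans (card_dvd_of_le e))))
  have t := sylow_count hp (sylow_of_sq hp c a b)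
  refine cg_le hp.one_lt ?_ l
  rw [← inf_relIndex_right, ← relIndex_mul_relIndex _ M H (by rw [inf_comm]; exact e) l, show (𝒩(P) ⊓ H).relIndex M =
    (𝒩(P)).relIndex M by rw [← inf_relIndex_right, inf_assoc, inf_eq_right.2 l, inf_relIndex_right]] at s
  simpa using ((t.mul_right _).symm.trans s)

variable {X : HM G} [hF : Fact X.Fu] [IsSimpleGroup G]
include hF

variable (X) in
theorem n2420 {y w z : G} (oy : orderOf y = 11) (ow : orderOf w = 11) (oz : orderOf z = 11) (a : Commute w y) (b : Commute w z)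
    (n : ¬ Commute z y) : Nat.card 𝒩(zpowers y) ≤ 2420 := by
  have p := fun {g : G} (o : orderOf g = 11) => pGrp_of_card_eq p11 ((Nat.card_zpowers g).trans o)
  obtain ⟨w0, u, U, k, l, -⟩ := exists_W1_le (X := X) (H := ⊤) (by rw [card_top, X.card_G]; norm_num) le_top
    (IsPiGrp.sup (p ow) (p oy) (.inl (norm_zpowers_of_cent (zpowers_le.2 (mem_cent_iff.2 a)))))
  have c := k.c y (l (mem_sup_right (mem_zpowers y))) fun hy => n (by
    by_cases hw : w ∈ zpowers w0
    · obtain ⟨i, rfl⟩ := mem_zpowers_iff.1 (k.zp hw (fun e => by simp [e] at ow) ▸ hy)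
      exact b.symm.zpow_right i
    · exact k.k.oz.cen (k.comm (l (mem_sup_left (mem_zpowers w))) hw (mem_cent_iff.2 b.symm) oz) hy)
  have d := card_mul_relIndex (cent_le_norm (zpowers y))
  have e := Nat.le_of_dvd (by norm_num) (relIndex_cent_dvd_pred p11 ((Nat.card_zpowers _).trans oy) le_rfl)
  rw [← d]
  exact Nat.mul_le_mul (n₂ := 242) (by rw [cent_zpowers, c]) e

variable (X) in
theorem maxP {M : Subgroup G} (c : Nat.card M = 12144) {y : G} (o : orderOf y = 11) (a : y ∈ M)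
    (h : ∀ H, M ≤ H → ∀ k ∈ H, k ∈ 𝒩(zpowers y) → k ∈ M ∨ 31 ∣ Nat.card H) : IsCoatom M := by
  refine coatom_of (by rw [c, X.card_G]; norm_num) fun H l => ?_
  have := sieve (f := fun n => bimp (dv 12144 n) (bimp (bigOK n) (bimp (ok11 n) (bimp (dv 22 (ee n 23))
    (band (bimp (dv 31 n) (Nat.beq n 86775571046077562880)) (bimp (cg n 12144 11) (Nat.beq n 12144))))))) (by decide +kernel)
    (X.dvd_G H)
  simp only [bimp_eq_true, band_eq_true, beq_iff, dv_iff] at this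
  have := this (c ▸ card_dvd_of_le l) (bigOK_H X H) (ok11_H X H)
    (by simpa only [c, show ee 12144 23 = 22 from rfl] using ee_dvd X (p := 23) (e := 22) (by decide) l (by rw [c]; norm_num))
  rw [c, X.card_G]
  exact or_iff_not_imp_right.2 fun n => this.2 (c ▸ idx_one p11 ((Nat.card_zpowers y).trans o) (zpowers_le.2 a)
    (by rw [c]; norm_num) l fun k d e => (h H l k d e).resolve_right fun f => n (this.1 f))

variable (X) in
theorem maxQ {M : Subgroup G} (c : Nat.card M = 163680) {f w y : G} (o : orderOf f = 5) (ow : orderOf w = 11) (oy : orderOf y = 3)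
    (a : f ∈ M) (b : w ∈ M) (d : y ∈ M) (n : f ∈ 𝒩(zpowers w)) (e : Commute y w)
    (h : ∀ H, M ≤ H → ∀ k ∈ H, k ∈ 𝒩(zpowers f) → k ∈ M ∨ 23 ∣ Nat.card H) : IsCoatom M := by
  refine coatom_of (by rw [c, X.card_G]; norm_num) fun H l => ?_
  obtain ⟨w0, u, U, k, i, -⟩ := exists_W1_le (X := X) (H := ⊤) (by rw [card_top, X.card_G]; norm_num) le_top
    (pGrp_of_card_eq p11 ((Nat.card_zpowers w).trans ow))
  have z := k.zp (k.mem (i (mem_zpowers w)) fun t => absurd (t ▸ oy ▸ orderOf_dvd_card_of_mem (mem_cent_iff.2 e)) (by norm_num))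
    fun t => by simp [t] at ow
  have t : (𝒩(zpowers w0)).relIndex H ≡ 1 [MOD 11] := k.czp ▸ cong_TI (z ▸ zpowers_le.2 (l b)) le_normalizer
    fun _ _ _ p q r => k.ti (zpowers_le.2 k.k.oz.mem p) q r
  have s : ∀ {g}, g ∈ M → g ∈ 𝒩(zpowers w) → orderOf g ∣ Nat.card ↥(𝒩(zpowers w0) ⊓ H) := fun p q =>
    orderOf_dvd_card_of_mem ⟨z ▸ q, l p⟩
  obtain ⟨r, hr⟩ : 5 * (11 * 3) ∣ Nat.card ↥(𝒩(zpowers w0) ⊓ H) := Nat.Coprime.mul_dvd_of_dvd_of_dvd (by norm_num) (o ▸ s a n)
    (Nat.Coprime.mul_dvd_of_dvd_of_dvd (by norm_num) (ow ▸ s b (le_normalizer (mem_zpowers w)))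
      (oy ▸ s d (norm_zpowers_of_cent le_rfl (mem_cent_iff.2 e))))
  have r1 : r ∣ 1936 := Nat.dvd_of_mul_dvd_mul_left (by norm_num : 0 < 5 * (11 * 3)) (by
    rw [← hr]; exact (card_dvd_of_le inf_le_left).trans (dvd_of_eq k.k.cN))
  have := sieve (f := fun n => bimp (dv 163680 n) (bimp (bigOK n) (bimp (ok11 n) (bimp (dv 10 (ee n 31))
    (bimp (anyL (fun r => cg n (Nat.mul 165 r) 11) [1, 2, 4, 8, 16, 11, 22, 44, 88, 176, 121, 242, 484, 968, 1936])
    (band (bimp (dv 23 n) (Nat.beq n 86775571046077562880)) (bimp (cg n 163680 5) (bor (Nat.beq n 163680)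
      (Nat.beq n 86775571046077562880))))))))) (by decide +kernel) (X.dvd_G H)
  simp only [bimp_eq_true, band_eq_true, bor_eq_true, beq_iff, dv_iff] at this
  have := this (c ▸ card_dvd_of_le l) (bigOK_H X H) (ok11_H X H)
    (by simpa only [c, show ee 163680 31 = 10 from rfl] using ee_dvd X (p := 31) (e := 10) (by decide) l (by rw [c]; norm_num))
    (anyL_eq_true.2 ⟨r, (by decide +kernel : ∀ r < 1937, r ∣ 1936 → r ∈ [1, 2, 4, 8, 16, 11, 22, 44, 88, 176, 121, 242, 484, 968,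
      1936]) r (Nat.lt_succ_of_le (Nat.le_of_dvd (by norm_num) r1)) r1, cg_of (by norm_num) t hr⟩)
  rw [c, X.card_G]
  by_cases q : 23 ∣ Nat.card H
  · exact .inr (this.1 q)
  · exact this.2 (c ▸ idx_one Nat.prime_five ((Nat.card_zpowers f).trans o) (zpowers_le.2 a)
      (by rw [c]; norm_num) l fun k d e => (h H l k d e).resolve_right q)

variable (X) in
theorem full {p e : ℕ} (hp : (p, e) ∈ EP) (hm : ∀ U : Sylow p G, IsCoatom 𝒩((U : Subgroup G))) {H : Subgroup G}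
    (d : p ∣ Nat.card H) (h : ee (Nat.card H) p = e) : Nat.card H = p * e ∨ H = ⊤ := by
  have pp : p.Prime := (by decide : ∀ a ∈ EP, a.1.Prime) _ hp
  have := Fact.mk pp
  obtain ⟨x, o⟩ := exists_prime_orderOf_dvd_card' (G := H) p d
  have c : Nat.card (zpowers x.1) = p := by rw [Nat.card_zpowers, orderOf_coe, o]
  obtain ⟨a, -, b, -⟩ := card_NP (X := X) hp c
  obtain ⟨g, -, f⟩ := sylow_trans pp (sylow_top pp default) (syl_big (X := X) a c le_top)
  have i := coatom_conjg (hm default) g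
  rw [conjg_norm, ← f] at i
  have j : 𝒩(zpowers x.1) ≤ H := inf_eq_left.1 (eq_of_le_of_card_ge inf_le_left (by
    rw [b, (card_NPH (X := X) hp c (zpowers_le.2 x.2)).1, h]))
  exact j.eq_or_lt.imp (fun k => by rw [← k, b]) (i.2 H)

variable (X) in
theorem maxU (m37 : ∀ U : Sylow 37 G, IsCoatom 𝒩((U : Subgroup G))) (m43 : ∀ U : Sylow 43 G, IsCoatom 𝒩((U : Subgroup G)))
    {M : Subgroup G} (c : Nat.card M = 141831360) : IsCoatom M := by
  refine coatom_of (by rw [c, X.card_G]; norm_num) fun H l => or_iff_not_imp_right.2 fun n => ?_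
  have n' : H ≠ ⊤ := fun e => n (by rw [e, card_top])
  have dM : 141831360 ∣ Nat.card H := c ▸ card_dvd_of_le l
  obtain ⟨w, u, U, k, -, i⟩ := exists_W1_le (X := X) (H := M) (by rw [c]; norm_num) bot_le (piGrp_bot _)
  have j : U ≤ 𝒩(zpowers w) := k.k.oz.le.trans (cent_zpowers w ▸ cent_le_norm _)
  obtain ⟨d, e⟩ := k.k.card ▸ card_dvd_of_le (le_inf j i)
  have f : d ∣ 240 := Nat.dvd_of_mul_dvd_mul_left (by norm_num : 0 < 1331) (by
    rw [← e]; exact (card_dvd_of_le inf_le_left).trans (dvd_of_eq k.k.cN))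
  obtain rfl := (by decide +kernel : ∀ d < 241, d ∣ 240 → cg 141831360 (1331 * d) 1331 = true → d = 80) d
    (Nat.lt_succ_of_le (Nat.le_of_dvd (by norm_num) f)) f (c ▸ cg_of (by norm_num) (k.cong i) e)
  obtain ⟨r, hr⟩ := e ▸ card_dvd_of_le (inf_le_inf_left 𝒩(zpowers w) l)
  have r3 : r ∣ 3 := Nat.dvd_of_mul_dvd_mul_left (by norm_num : 0 < 1331 * 80) (by
    rw [← hr]; exact (card_dvd_of_le inf_le_left).trans (dvd_of_eq k.k.cN))
  obtain rfl : r = 1 := ((Nat.dvd_prime Nat.prime_three).1 r3).resolve_right fun t => by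
    obtain ⟨g, -, a⟩ := sylow_trans p11 (sylow_top p11 default) k.k.syl
    have b := coatom_conjg (max_U X default) g
    have b' := (card_conjg _ g).trans (X.s5575 default).2.2.2.1
    rw [conjg_norm, ← a] at b b'
    rw [← eq_of_le_of_card_ge k.k.oz.norm (by rw [b', k.k.cN]; norm_num)] at b
    have s : 𝒩(zpowers w) ≤ H := inf_eq_left.1 (eq_of_le_of_card_ge inf_le_left (by rw [hr, t, k.k.cN]))
    rw [← s.eq_or_lt.resolve_right fun q => n' (b.2 H q), k.k.cN] at dM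
    norm_num at dM
  have := sieve (f := fun n => bimp (dv 141831360 n) (bimp (bigOK n) (bimp (cg n 106480 1331) (bimp (bne' (ee n 37) 12)
    (bimp (bimp (dv 43 n) (bne' (ee n 43) 14)) (Nat.beq n 141831360)))))) (by decide +kernel) (X.dvd_G H)
  simp only [bimp_eq_true, bne'_eq_true, beq_iff, dv_iff] at this
  rw [c]
  exact this dM (bigOK_H X H) (cg_of (by norm_num) (k.cong (i.trans l)) hr)
    (fun t => n' ((full X (by decide) m37 ((by norm_num : 37 ∣ 141831360).trans dM) t).resolve_left fun q => by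
      rw [q] at dM; norm_num at dM))
    fun s t => n' ((full X (by decide) m43 s t).resolve_left fun q => by rw [q] at dM; norm_num at dM)

end

theorem realizeEqns_J4yMax : True := by
  have := @CA.J4y.wIn.eq_1
  have := @CA.J4y.wIn.eq_def
  have := @CA.J4y.wIn.congr_simp
  have := @CA.J4y.stab.eq_1.{0}
  have := @CA.J4y.stab.eq_def.{0}
  have := @CA.J4y.stab.congr_simp.{0}
  have := @CA.J4y.nChk.eq_1
  have := @CA.J4y.nChk.eq_def
  have := @CA.J4y.nChk.congr_simp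
  trivial

end CA.J4y
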