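/-
A maximal subgroup `PGL₂(23)` of the fourth Janko group.
-/
import Cfsg.Agent.J4y.WPa

set_option autoImplicit false
set_option maxRecDepth 100000
set_option linter.unusedSectionVars false
set_option Elab.async false

namespace CA.J4y

open CA.M24 CA.Fi CA.FG CA.J4 CA.J4.HM CA.J4o CA.J4x Cfsg Subgroup

noncomputable section

def nokG (A : ℕ) : Bool := bne' (c0 A) 1

def lowP (mul : ℕ → ℕ → ℕ) (one : ℕ) (ok nok : ℕ → Bool) (gs : List ℕ) : Bool :=
  band (ordC mul one ok nok gs 1 0 23) (band (ordC mul one ok nok gs 2 0x22 11) (band (ordC mul one ok nok gs 2 0x04 3)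
    (force (ev mul one gs 4 0x3140) fun c => force (getL gs one 4) fun r => band (nok (pwC mul one c 4))
      (band (ok (pwC mul one c 8)) (band (ok (mul r r)) (force (mul r c) fun d => ok (mul d d)))))))

variable {G : Type*} [Group G] [Finite G]

theorem lowP_spec {mul : ℕ → ℕ → ℕ} {one : ℕ} {ok nok : ℕ → Bool} {C : Cd G mul one ok}
    (hn : ∀ {g A}, C.R g A → nok A = true → g ≠ 1) {v : ℕ → G} {gs : List ℕ} (h : ∀ l, C.R (v l) (getL gs one l))
    (e : lowP mul one ok nok gs = true) : 12144 ∣ Nat.card (gen v [0, 1, 2, 3, 4]) := by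
  simp only [lowP, band_eq_true, force_eq] at e
  obtain ⟨e1, e2, e3, e4, e5, e6, e7⟩ := e
  have d : ∀ {k u p : ℕ}, p.Prime → ordC mul one ok nok gs k u p = true → wIn [0, 1, 2, 3, 4] k u = true →
      p ∣ Nat.card (gen v [0, 1, 2, 3, 4]) := fun hp a b => Cd.ord hn h hp a ▸ orderOf_dvd_card_of_mem (pr_gen b)
  have c := Cd.ev_spec h 4 0x3140
  have n := hn (Cd.pw c 4) e4
  have o : orderOf (pr v 4 0x3140) = 2 ^ (2 + 1) := orderOf_eq_prime_pow n (C.ro (Cd.pw c 8) e5)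
  have f := dih (C.ro (C.rm (h 4) (h 4)) e6) (C.ro (C.rm (C.rm (h 4) c) (C.rm (h 4) c)) e7)
    fun t => n (by rw [show 4 = 2 * 2 from rfl, pow_mul, sq _, sq _, t, one_mul])
  rw [o] at f
  exact (Nat.Coprime.mul_dvd_of_dvd_of_dvd (by norm_num) (d (by norm_num) e1 (by decide +kernel))
    (Nat.Coprime.mul_dvd_of_dvd_of_dvd (by norm_num) (d p11 e2 (by decide +kernel))
      (Nat.Coprime.mul_dvd_of_dvd_of_dvd (by norm_num) (d Nat.prime_three e3 (by decide +kernel))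
        (f ▸ card_dvd_of_le (sup_le (zpowers_le.2 (pr_gen (by decide +kernel))) (zpowers_le.2 (mem_gen (by decide)))))))
    : 23 * (11 * (3 * (2 ^ (2 + 1) * 2))) ∣ _)

variable {M : FR G} {g h : G} {A B : ℕ}

theorem nG : ∀ {g A}, (cdG M).R g A → nokG A = true → g ≠ 1 := fun a e => FR.R.ne a (bne'_eq_true.1 e)

theorem in_mem {K : Subgroup G} (a : M.In K A) (r : M.R g A) : g ∈ K :=
  let ⟨_, b, c⟩ := a; c.eq r rfl ▸ b

theorem comm (a : M.R g A) (b : M.R h B) (e : mx A B = mx B A) : Commute g h := (a.mul b).eq (b.mul a) e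

theorem ncomm (a : M.R g A) (b : M.R h B) (e : c0 (mx A B) ≠ c0 (mx B A)) : ¬ Commute g h := fun c =>
  e (c0_eq ((show _ = _ from a.mul b).symm.trans (c.eq ▸ b.mul a)))

theorem ex_v {o pr : List (ℕ × ℕ)} (hb : ∀ A ∈ [MT, MY, MX], M.In ⊤ A) (h1 : slp (outs o) pr [MT, MY, MX] = true) {l : List ℕ}
    (h2 : allL (fun A => anyL (fun a => Nat.beq a.2 A) ((0, MX) :: o)) l = true) : ∀ A ∈ l, M.In ⊤ A := fun A hA =>
  (List.mem_cons.1 (sub_snd h2 A hA)).elim (fun e => e ▸ hb MX (by simp)) (FR.slp_spec h1 hb A)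

theorem ex_gs {gs : List ℕ} (h : ∀ A ∈ gs, M.In ⊤ A) : ∃ v : ℕ → G, ∀ l, M.R (v l) (getL gs II l) :=
  (cdG M).exists_v fun A hA => let ⟨g, _, r⟩ := h A hA; ⟨g, r⟩

abbrev PG : Type := GL (Fin 2) (ZMod 23) ⧸ center (GL (Fin 2) (ZMod 23))

theorem card_PG : Nat.card PG = 12144 :=
  have := Fact.mk (by norm_num : Nat.Prime 23)
  (Agent.Lin.card_PGL_eq_card_SL (F := ZMod 23) 2).trans (Agent.Lin.card_SL2 (ZMod.card 23))

def nok23 (A : ℕ) : Bool := decide (t23 (mu23 A 0x2010301) ≠ t23 (mu23 0x2010301 A))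

theorem exPG : ∃ v : ℕ → PG, gen v [0, 1, 2, 3, 4] = ⊤ ∧ (∀ l < 16, v l * v (lt (dr IP l)) = 1) ∧
    ∀ w ∈ rlP, pr v (ln w) (dr w 2) = 1 := by
  obtain ⟨v, h⟩ := cd23.exists_v (gs := hsP) fun A hA =>
    let ⟨k, e⟩ := in23 ((by decide +kernel : ∀ A ∈ hsP, (t23 A).det ≠ 0) A hA); ⟨k, k, rfl, e⟩
  exact ⟨v, eq_top_of_le_card _ (card_PG ▸ Nat.le_of_dvd Nat.card_pos (lowP_spec (nok := nok23)
    (fun a e => cdQ_ne t23_mul a (in23 (by decide +kernel)) (of_decide_eq_true e)) h (by decide +kernel))),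
    Cd.invs h (by decide +kernel), Cd.rels h (by decide +kernel)⟩

theorem isoP {v : ℕ → G} (h : ∀ l, M.R (v l) (getL gsP II l)) :
    Nat.card (gen v [0, 1, 2, 3, 4]) = 12144 ∧ Nonempty (gen v [0, 1, 2, 3, 4] ≃* PG) := by
  obtain ⟨v', t, a, b⟩ := exPG
  have a := prod_invs (Cd.invs (C := cdG M) h (by decide +kernel)) a
  have b := prod_rels (Cd.rels (C := cdG M) h (by decide +kernel)) b
  have c1 := card_le e1P a b
  have c2 := card_le e2P a b
  have c3 := card_le e3P a b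
  rw [gen_nil, card_bot] at c1
  obtain ⟨φ, e⟩ := exists_hom (v := v) t (by rw [card_PG]; omega)
  have l := Nat.le_of_dvd Nat.card_pos (lowP_spec (C := cdG M) nG h (by decide +kernel))
  rw [← e] at l ⊢
  have i := MulEquiv.ofBijective _ (φ.rangeRestrict_surjective.bijective_of_nat_card_le (card_PG ▸ l))
  exact ⟨(Nat.card_congr i.toEquiv).symm.trans card_PG, ⟨i.symm⟩⟩

theorem pgl [IsSimpleGroup G] (X : HM G) [Fact X.Fu] (hb : ∀ A ∈ [MT, MY, MX], M.In ⊤ A) :
    ∃ M : Subgroup G, IsCoatom M ∧ Nonempty (M ≃* GL (Fin 2) (ZMod 23) ⧸ center (GL (Fin 2) (ZMod 23))) := by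
  obtain ⟨v, h⟩ := ex_gs (ex_v hb slpP (l := gsP) (by decide +kernel))
  obtain ⟨u, k⟩ := ex_gs (ex_v hb slpP (l := [yP, wP, y2P]) (by decide +kernel))
  obtain ⟨c, e⟩ := isoP h
  have o : ∀ i < 3, orderOf (u i) = 11 := fun i l => (k i).ord (l := b11) p11 rfl
    (allR_eq_true.1 (by decide +kernel : allR (fun i => ordT b11 (getL [yP, wP, y2P] II i)) 3 = true) i l)
  have n := norm_in (k 0) (l := nP) (by decide +kernel) (ex_v hb slpP (by decide +kernel))
  have og := (FR.base (l := b23) (j := jP) (d := 2) (e := 22) (by norm_num) rfl (h 0) (h 2) (by decide) (by norm_num)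
    (by decide +kernel)).2.1
  have z := dih (((h 4).mul (h 4)).eq FR.one (by decide +kernel))
    ((((h 4).mul (h 2)).mul ((h 4).mul (h 2))).eq FR.one (by decide +kernel)) (((h 2).mul (h 2)).ne (by decide +kernel))
  have s : zpowers (v 2) ⊔ zpowers (v 4) ≤ gen v [0, 1, 2, 3, 4] :=
    sup_le (zpowers_le.2 (mem_gen (by decide))) (zpowers_le.2 (mem_gen (by decide)))
  refine ⟨_, maxP X c (o 0 (by norm_num)) (((h 2).mul (h 2)).eq (k 0) (by decide +kernel) ▸
    mul_mem (mem_gen (by decide)) (mem_gen (by decide))) fun H l a b d => ?_, e⟩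
  exact (cosetsZ (m := mP) (T := TP) (b := b31) (l := wP_0 ++ wP_1)
    (sup_le (zpowers_le.2 (in_mem (n gP (by simp [nP])) (h 2))) (zpowers_le.2 (in_mem (n rP (by simp [nP])) (h 4))))
    (sup_le (mem_stab (w := vP) (h 2) (by decide +kernel)) (mem_stab (h 4) (by decide +kernel))) (by decide +kernel)
    (walk_spec (FR.stL_in n) (walk_app cP_1 cP_0) ⟨1, one_mem _, FR.one⟩).2
    (by rw [z, og]; exact n2420 X (o 0 (by norm_num)) (o 1 (by norm_num)) (o 2 (by norm_num))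
          (comm (k 1) (k 0) (by decide +kernel)) (comm (k 1) (k 2) (by decide +kernel)) (ncomm (k 2) (k 0) (by decide +kernel)))
    (by norm_num) rfl (s.trans l) (FR.slp_spec (o := uP) (l := qP) (T := bP) (by decide +kernel) (List.forall_mem_cons.2
      ⟨⟨_, l (mem_gen (by decide)), h 4⟩, List.forall_mem_cons.2 ⟨⟨_, l (mem_gen (by decide)), h 2⟩,
        List.forall_mem_singleton.2 ⟨_, l (mem_gen (by decide)), h 0⟩⟩⟩)) a b d).imp_left fun t => s t

end

theorem realizeEqns_J4yPG : True := by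
  have := @CA.J4y.lowP.eq_1
  have := @CA.J4y.lowP.eq_def
  have := @CA.J4y.lowP.congr_simp
  have := @CA.J4y.PG.eq_1
  have := @CA.J4y.PG.eq_def
  have := @CA.J4y.PG.congr_simp
  have := @CA.J4y.nok23.eq_1
  have := @CA.J4y.nok23.eq_def
  have := @CA.J4y.nok23.congr_simp
  have := @CA.J4y.nokG.eq_1
  have := @CA.J4y.nokG.eq_def
  have := @CA.J4y.nokG.congr_simp
  trivial

end CA.J4y
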