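/-
A maximal subgroup `U₃(11):2` of the fourth Janko group.
-/
import Cfsg.Agent.J4y.DU

set_option autoImplicit false
set_option maxRecDepth 100000
set_option linter.unusedSectionVars false
set_option Elab.async false

namespace CA.J4y

open CA.M24 CA.Fi CA.FG CA.J4 CA.J4.HM CA.J4o CA.J4x Cfsg Subgroup Matrix

noncomputable section

abbrev PU : Type := PSU 3 F121 11

theorem card_PU : Nat.card PU = 70915680 := by
  have := fq121.card_PSU (n := 3) (by norm_num)
  norm_num [Finset.prod_range_succ] at this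
  change 3 * (12 * Nat.card PU) = _ at this
  omega

instance finite_PU : Finite PU := Nat.finite_of_card_ne_zero (by rw [card_PU]; norm_num)

theorem simple_PU : IsSimpleGroup PU := fq121.isSimpleGroup_PSU le_rfl (by norm_num)

variable {G : Type*} [Group G] [Finite G] {M : FR G}

theorem c1331 {x y z : G} (oz : orderOf z = 11) (hx : x ^ 11 = 1) (hy : y ^ 11 = 1) (a : Commute x z) (b : Commute y z)
    (e : x * y * x⁻¹ * y⁻¹ = z) : Nat.card ↥(zpowers z ⊔ zpowers x ⊔ zpowers y) = 1331 := by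
  have n : ¬ Commute x y := fun c => by simp [← e, c.eq] at oz
  rw [BG.P04.card_sup_zpowers p11 (mem_norm_of_forall fun g hg => ?_) (fun f => n ?_) (hy ▸ one_mem _),
    BG.P04.card_sup_zpowers p11 (norm_zpowers_of_cent le_rfl (mem_cent_iff.2 a)) (fun f => n ?_) (hx ▸ one_mem _),
    Nat.card_zpowers, oz]
  · obtain ⟨k, rfl⟩ := mem_zpowers_iff.1 f
    exact b.symm.zpow_left k
  · refine (sup_le (zpowers_le.2 ?_) (zpowers_le.2 ?_) : _ ≤ (zpowers z ⊔ zpowers x).comap (MulAut.conj y).toMonoidHom) hg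
    · show y * z * y⁻¹ ∈ zpowers z ⊔ zpowers x
      rw [b.eq, mul_inv_cancel_right]
      exact mem_sup_left (mem_zpowers z)
    · show y * x * y⁻¹ ∈ zpowers z ⊔ zpowers x
      rw [show y * x * y⁻¹ = z⁻¹ * x by rw [← e]; group]
      exact mul_mem_sup (inv_mem (mem_zpowers z)) (mem_zpowers x)
  · exact (mem_cent_iff.1 ((sup_le (zpowers_le.2 (mem_cent_iff.2 a.symm)) (zpowers_le.2 (mem_cent_singleton_self x)) :
      _ ≤ 𝒞[x]) f)).symm

def nok121 (A : ℕ) : Bool := decide (t121 (mu121 A bU) ≠ t121 (mu121 bU A))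

theorem exPU : ∃ v : ℕ → PU, gen v [0, 1, 2, 3, 8] = ⊤ ∧ (∀ l < 16, v l * v (lt (dr IU l)) = 1) ∧
    ∀ w ∈ rlU, pr v (ln w) (dr w 2) = 1 := by
  have s : ∀ A ∈ bU :: hsU, (t121 A).det = 1 ∧ (t121 A)ᵀ * (t121 A).map star = 1 := by decide +kernel
  obtain ⟨v, h⟩ := cd121.exists_v (gs := hsU) fun A hA =>
    let ⟨k, e⟩ := in121 (s A (List.mem_cons_of_mem _ hA)).1 (s A (List.mem_cons_of_mem _ hA)).2; ⟨k, k, rfl, e⟩
  have := simple_PU
  have n : ∀ {g A}, cd121.R g A → nok121 A = true → g ≠ 1 := fun a e =>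
    cdQ_ne t121_mul a (in121 (s _ List.mem_cons_self).1 (s _ List.mem_cons_self).2) (of_decide_eq_true e)
  have i := Cd.invs h (I := IU) (by decide +kernel)
  have r := Cd.rels h (rels := rlU) (by decide +kernel)
  have o : ∀ {k u p : ℕ}, p.Prime → ordC mu121 0x10000000100000001 ok3 nok121 hsU k u p = true → orderOf (pr v k u) = p :=
    fun hp a => Cd.ord n h hp a
  have i3 : v 3 = (v 2)⁻¹ := eq_inv_of_mul_eq_one_right (i 2 (by norm_num))
  have i5 : v 5 = (v 4)⁻¹ := eq_inv_of_mul_eq_one_right (i 4 (by norm_num))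
  have i7 : v 7 = (v 6)⁻¹ := eq_inv_of_mul_eq_one_right (i 6 (by norm_num))
  have r1 : v 2 * (v 4 * (v 3 * (v 5 * (v 7 * 1)))) = 1 := r 0x753427534205 (by decide +kernel)
  have r2 : v 2 * (v 6 * (v 3 * (v 7 * 1))) = 1 := r 0x7362736204 (by decide +kernel)
  have r3 : v 4 * (v 6 * (v 5 * (v 7 * 1))) = 1 := r 0x7564756404 (by decide +kernel)
  have r4 : v 0 * (v 2 * (v 1 * (v 5 * 1))) = 1 := r 0x5120512004 (by decide +kernel)
  simp only [i3, i5, i7, mul_one, ← mul_assoc, mul_inv_eq_iff_eq_mul, one_mul] at r1 r2 r3 r4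
  have e : v 2 * v 4 * (v 2)⁻¹ * (v 4)⁻¹ = v 6 := by rw [r1]; group
  have m2 : v 2 ∈ gen v [0, 1, 2, 3, 8] := mem_gen (by decide)
  have m4 : v 4 ∈ gen v [0, 1, 2, 3, 8] := r4 ▸ mul_mem (mul_mem (mem_gen (by decide)) m2) (mem_gen (by decide))
  have c := c1331 (z := v 6) ((congrArg orderOf (mul_one _)).symm.trans (o (k := 1) (u := 6) p11 (by decide +kernel)))
    (cd121.ro (Cd.pw (h 2) 11) (by decide +kernel)) (cd121.ro (Cd.pw (h 4) 11) (by decide +kernel)) r2 r3 e
  have o8 : orderOf (v 0 ^ 5) = 2 ^ (2 + 1) := orderOf_eq_prime_pow (n (Cd.pw (Cd.pw (h 0) 5) 4) (by decide +kernel))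
    (cd121.ro (Cd.pw (Cd.pw (h 0) 5) 8) (by decide +kernel))
  exact ⟨v, top_of_idx (p := 37) (d := 37 * (1331 * (5 * 2 ^ (2 + 1)))) (m := 36) (by norm_num) (Nat.Coprime.mul_dvd_of_dvd_of_dvd
    (by norm_num) (o (k := 5) (u := 0x12028) (p := 37) (by norm_num) (by decide +kernel) ▸ orderOf_dvd_card_of_mem (pr_gen (by decide +kernel)))
    (Nat.Coprime.mul_dvd_of_dvd_of_dvd (by norm_num) (c ▸ card_dvd_of_le (sup_le (sup_le (zpowers_le.2 (e ▸ mul_mem (mul_mem
      (mul_mem m2 m4) (inv_mem m2)) (inv_mem m4))) (zpowers_le.2 m2)) (zpowers_le.2 m4))) (Nat.Coprime.mul_dvd_of_dvd_of_dvd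
        (by norm_num) (o (k := 8) (u := 0) Nat.prime_five (by decide +kernel) ▸ orderOf_dvd_card_of_mem (pr_gen (by decide +kernel)))
        (o8 ▸ orderOf_dvd_card_of_mem (pow_mem (mem_gen (by decide)) 5))))) card_PU (by norm_num) (by norm_num), i, r⟩

theorem isoU {v : ℕ → G} (h : ∀ l, M.R (v l) (getL gsU II l)) : Nonempty (gen v [0, 1, 2, 3, 8] ≃* PU) := by
  obtain ⟨v', t, a, b⟩ := exPU
  have a := prod_invs (Cd.invs (C := cdG M) h (by decide +kernel)) a
  have b := prod_rels (Cd.rels (C := cdG M) h (by decide +kernel)) b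
  have c1 := card_le e1U a b
  have c2 := card_le e2U a b
  have c3 := card_le e3U a b
  have c4 := card_le e4U a b
  rw [gen_nil, card_bot] at c1
  have := simple_PU
  exact iso_of_simple (exists_hom (v := v) t (by rw [card_PU]; omega)) (mem_gen (l := 2) (by decide)) ((h 2).ne (by decide +kernel))

theorem u311 [IsSimpleGroup G] (X : HM G) [Fact X.Fu] (hb : ∀ A ∈ [MT, MY, MX], M.In ⊤ A) :
    ∃ M : Subgroup G, IsCoatom M ∧ ∃ (K : Subgroup M) (F : Type) (_ : Field F) (_ : Fintype F),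
      Fintype.card F = 121 ∧ K.Normal ∧ K.index = 2 ∧ Nonempty (K ≃* PSU 3 F 11) := by
  obtain ⟨v, h⟩ := ex_gs (ex_v hb slpU (l := gsU) (by decide +kernel))
  obtain ⟨s, -, k⟩ := ex_v hb slpU (l := [sgU]) (by decide +kernel) sgU List.mem_cons_self
  obtain ⟨e⟩ := isoU h
  have c := (Nat.card_congr e.toEquiv).trans card_PU
  have o := k.ord (l := [1]) Nat.prime_two rfl (by decide +kernel)
  have w : M.R (pr v lU cU) dU := (by decide +kernel : ev mx II gsU lU cU = dU) ▸ Cd.ev_spec (C := cdG M) h lU cU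
  obtain ⟨a1, a2, a3, ⟨a4⟩⟩ := ext_prime Nat.prime_two (K := gen v [0, 1, 2, 3, 8]) (norm_gen (List.forall_mem_cons.2
    ⟨cj_mem (n := 11) k (h 0) (mem_gen (by decide)) (by decide +kernel), List.forall_mem_cons.2
      ⟨cj_mem (n := 11) k (h 1) (mem_gen (by decide)) (by decide +kernel), List.forall_mem_cons.2
        ⟨cj_mem (n := 1) k (h 2) (mem_gen (by decide)) (by decide +kernel), List.forall_mem_cons.2
          ⟨cj_mem (n := 1) k (h 3) (mem_gen (by decide)) (by decide +kernel), List.forall_mem_singleton.2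
            (cj_mem (n := 1) k (h 8) (mem_gen (by decide)) (by decide +kernel))⟩⟩⟩⟩))
    (fun t => by
      have a := (card_NPH (X := X) (p := 37) (e := 12) (by decide) ((Nat.card_zpowers _).trans (w.ord (l := b37) (by norm_num) rfl
        (by decide +kernel))) (zpowers_le.2 (pr_gen (ls := [0, 1, 2, 3, 8]) (by decide +kernel)))).1
      have b := orderOf_dvd_card_of_mem (mem_inf.2 ⟨mem_norm_zp ((k.mul w).eq ((w.pwS 36).mul k) (by decide +kernel)), t⟩)
      rw [a, c, o] at b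
      exact absurd b (by decide)) (o ▸ pow_orderOf_eq_one s)
  exact ⟨_, maxU X (max_37 X (gd37 hb fun _ => card_N3 X)) (max_43 X (gd43 hb fun _ => card_N7 (X := X))) (by rw [a1, c]),
    _, F121, inferInstance, inferInstance, Nat.card_eq_fintype_card.symm.trans fq121.card, a2, a3, ⟨a4.trans e⟩⟩

end

theorem realizeEqns_J4yU3 : True := by
  have := @CA.J4y.nok121.eq_1
  have := @CA.J4y.nok121.eq_def
  have := @CA.J4y.nok121.congr_simp
  have := @CA.J4y.PU.eq_1
  have := @CA.J4y.PU.eq_def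
  have := @CA.J4y.PU.congr_simp
  trivial

end CA.J4y
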